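import Cfsg.Prelude.Def_GeometricClasses
import Cfsg.Agent.Lib.Forms.Symplectic

/-!
Quadratic forms in characteristic two with a prescribed polar form, classified by their Gauss sums.
-/

set_option autoImplicit false

namespace Cfsg.Agent.Lib.OrthSympTwo

open Matrix Module Cfsg.Agent.Lib.Forms

variable {F : Type*} [Field F] [Fintype F] [CharP F 2]

/-- The trace to the prime field. -/
noncomputable def tr (F : Type*) [Field F] [CharP F 2] : F →+ ZMod 2 :=
  letI := ZMod.algebra F 2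
  (Algebra.trace (ZMod 2) F).toAddMonoidHom

/-- The sign character. -/
noncomputable def chi (a : F) : ℤ := if tr F a = 0 then 1 else -1

theorem tr_sq (a : F) : tr F (a ^ 2) = tr F a := by
  letI := ZMod.algebra F 2
  haveI : Finite F := inferInstance
  have h := Algebra.trace_eq_of_algEquiv (FiniteField.frobeniusAlgEquiv (ZMod 2) F 2) a
  simpa [tr, ZMod.card] using h

theorem exists_tr (x : F) (hx : x ≠ 0) : ∃ a, tr F (a * x) ≠ 0 := by
  letI := ZMod.algebra F 2
  by_contra h
  push Not at h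
  refine hx ((traceForm_nondegenerate (ZMod 2) F).1 x fun y => ?_)
  rw [Algebra.traceForm_apply, mul_comm]
  exact h y

theorem exists_sq (a : F) : ∃ b, b ^ 2 = a :=
  ((bijective_frobenius F 2).2 a).imp fun b hb => by simpa [frobenius_def] using hb

theorem sq_inj {a b : F} (h : a ^ 2 = b ^ 2) : a = b :=
  (bijective_frobenius F 2).1 (by simpa [frobenius_def] using h)

theorem chi_zero : chi (0 : F) = 1 := by simp [chi]

theorem chi_cases (a : F) : chi a = 1 ∨ chi a = -1 := by
  unfold chi; split <;> simp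

theorem chi_add (a b : F) : chi (a + b) = chi a * chi b := by
  have h : ∀ x y : ZMod 2, (if x + y = 0 then (1 : ℤ) else -1) =
      (if x = 0 then 1 else -1) * (if y = 0 then 1 else -1) := by decide
  simpa [chi] using h (tr F a) (tr F b)

theorem chi_sq (a : F) : chi (a ^ 2) = chi a := by simp [chi, tr_sq]

theorem exists_chi {x : F} (hx : x ≠ 0) : ∃ a, chi (a * x) = -1 :=
  (exists_tr x hx).imp fun a ha => by simp [chi, ha]

theorem artin_schreier {x : F} (hx : chi x = 1) : ∃ a : F, a + a ^ 2 = x := by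
  classical
  let φ : F →+ F := AddMonoidHom.mk' (fun a => a + a ^ 2) fun a b => by
    rw [CharTwo.add_sq]; abel
  have hle : φ.range ≤ (tr F).ker := by
    rintro _ ⟨a, rfl⟩
    show tr F (a + a ^ 2) = 0
    rw [map_add, tr_sq]
    exact CharTwo.add_self_eq_zero _
  have hker : Nat.card φ.ker = 2 := by
    have : (φ.ker : Set F) = {0, 1} := by
      ext a
      simp only [SetLike.mem_coe, AddMonoidHom.mem_ker, φ, AddMonoidHom.mk'_apply, Set.mem_insert_iff,
        Set.mem_singleton_iff]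
      constructor
      · intro h
        have : a * (1 + a) = 0 := by rw [mul_add, mul_one, ← sq, h]
        rcases mul_eq_zero.1 this with h | h
        · exact Or.inl h
        · exact Or.inr (CharTwo.add_eq_zero.1 h).symm
      · rintro (rfl | rfl) <;> simp [CharTwo.add_self_eq_zero]
    rw [← SetLike.coe_sort_coe, Nat.card_coe_set_eq, this, Set.ncard_pair zero_ne_one]
  have htr : Function.Surjective (tr F) := by
    obtain ⟨a, ha⟩ := exists_tr (1 : F) one_ne_zero
    intro z
    have : ∀ z w : ZMod 2, w ≠ 0 → z = 0 ∨ z = w := by decide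
    rcases this z _ ha with rfl | rfl
    exacts [⟨0, map_zero _⟩, ⟨_, rfl⟩]
  have h1 := φ.ker.card_eq_card_quotient_mul_card_addSubgroup
  rw [Nat.card_congr (QuotientAddGroup.quotientKerEquivRange φ).toEquiv, hker] at h1
  have h2 := (tr F).ker.card_eq_card_quotient_mul_card_addSubgroup
  rw [Nat.card_congr (QuotientAddGroup.quotientKerEquivOfSurjective (tr F) htr).toEquiv,
    Nat.card_zmod] at h2
  have heq : φ.range = (tr F).ker := AddSubgroup.eq_of_le_of_card_ge hle (by omega)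
  have hmem : x ∈ (tr F).ker := by
    show tr F x = 0
    by_contra h
    simp [chi, h] at hx
  rw [← heq] at hmem
  exact hmem

theorem sum_chi_eq_zero {M : Type*} [AddCommGroup M] [Fintype M] (φ : M → F)
    (hφ : ∀ a b, φ (a + b) = φ a + φ b) (h : ∃ m, chi (φ m) = -1) :
    ∑ m, chi (φ m) = 0 := by
  obtain ⟨m0, hm0⟩ := h
  have := Equiv.sum_comp (Equiv.addRight m0) fun m => chi (φ m)
  simp only [Equiv.coe_addRight, hφ, chi_add, hm0, ← Finset.sum_mul] at this
  linarith

variable {d : ℕ}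

/-- A quadratic form whose polar form is the standard alternating form. -/
structure IsQ (d : ℕ) (Q : (Fin d ⊕ Fin d → F) → F) : Prop where
  smul : ∀ (c : F) v, Q (c • v) = c ^ 2 * Q v
  add : ∀ u v, Q (u + v) = Q u + Q v + stdB d F u v

theorem IsQ.of_quad {Q : (Fin d ⊕ Fin d → F) → F} (hQ : Cfsg.Geo.IsNondegenerateQuadraticForm Q)
    (hQf : ∀ u v, QuadraticMap.polar Q u v = Cfsg.sympForm d F u v) : IsQ d Q := by
  refine ⟨hQ.smul, fun u v => ?_⟩
  rw [stdB_apply, ← hQf]
  simp [QuadraticMap.polar]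

variable {Q Q' : (Fin d ⊕ Fin d → F) → F}

theorem IsQ.zero (hQ : IsQ d Q) : Q 0 = 0 := by simpa using hQ.smul 0 0

theorem stdB_symm (u v : Fin d ⊕ Fin d → F) : stdB d F u v = stdB d F v u := by
  rw [← (stdB_isAlt (F := F) d).neg_eq u v, CharTwo.neg_eq]

/-- Change of a form by the square of a linear functional. -/
noncomputable def shift (Q : (Fin d ⊕ Fin d → F) → F) (w v : Fin d ⊕ Fin d → F) : F :=
  Q v + stdB d F w v ^ 2

theorem IsQ.shift (hQ : IsQ d Q) (w : Fin d ⊕ Fin d → F) : IsQ d (shift Q w) := by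
  refine ⟨fun c v => ?_, fun u v => ?_⟩
  · simp only [OrthSympTwo.shift, hQ.smul, map_smul, smul_eq_mul]; ring
  · simp only [OrthSympTwo.shift, hQ.add, map_add, CharTwo.add_sq]; ring

theorem IsQ.exists_shift (hQ : IsQ d Q) (hQ' : IsQ d Q') :
    ∃ w, ∀ v, Q' v = OrthSympTwo.shift Q w v := by
  choose s hs using exists_sq (F := F)
  let L : (Fin d ⊕ Fin d → F) →ₗ[F] F :=
    { toFun := fun v => s (Q' v + Q v)
      map_add' := fun u v => sq_inj (by
        rw [CharTwo.add_sq, hs, hs, hs, hQ.add, hQ'.add]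
        linear_combination CharTwo.add_self_eq_zero (stdB d F u v))
      map_smul' := fun c v => sq_inj (by
        simp only [RingHom.id_apply, smul_eq_mul, mul_pow, hs, hQ.smul, hQ'.smul]; ring) }
  refine ⟨((stdB d F).toDual (stdB_nondegenerate d)).symm L, fun v => ?_⟩
  rw [OrthSympTwo.shift, LinearMap.BilinForm.apply_toDual_symm_apply]
  show Q' v = Q v + s (Q' v + Q v) ^ 2
  rw [hs]
  linear_combination -CharTwo.add_self_eq_zero (Q v)

/-- The Gauss sum. -/
noncomputable def gauss (Q : (Fin d ⊕ Fin d → F) → F) : ℤ :=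
  letI := Classical.decEq F
  ∑ v, chi (Q v)

theorem IsQ.gauss_shift (hQ : IsQ d Q) (w : Fin d ⊕ Fin d → F) :
    gauss (OrthSympTwo.shift Q w) = chi (Q w) * gauss Q := by
  unfold gauss
  rw [← Equiv.sum_comp (Equiv.addRight w) (fun v => chi (Q v)), Finset.mul_sum]
  refine Finset.sum_congr rfl fun v _ => ?_
  rw [OrthSympTwo.shift, chi_add, chi_sq, ← chi_add, ← chi_add, Equiv.coe_addRight, hQ.add,
    stdB_symm v w]
  congr 1
  linear_combination -CharTwo.add_self_eq_zero (Q w)

theorem isQ_plus : IsQ d (Cfsg.quadFormPlus d F) := by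
  refine ⟨fun c v => ?_, fun u v => ?_⟩
  · simp only [Cfsg.quadFormPlus, Pi.smul_apply, smul_eq_mul, Finset.mul_sum]
    exact Finset.sum_congr rfl fun i _ => by ring
  · rw [stdB_apply]
    simp only [Cfsg.quadFormPlus, Cfsg.sympForm, dotProduct, Fintype.sum_sum_type, Matrix.mulVec,
      Matrix.J, Pi.add_apply, Matrix.fromBlocks_apply₁₁, Matrix.fromBlocks_apply₁₂,
      Matrix.fromBlocks_apply₂₁, Matrix.fromBlocks_apply₂₂, Matrix.zero_apply, Matrix.neg_apply,
      Matrix.one_apply, zero_mul, Finset.sum_const_zero, zero_add, add_zero, ite_mul, one_mul,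
      CharTwo.neg_eq, Finset.sum_ite_eq, Finset.mem_univ, if_true, ← Finset.sum_add_distrib]
    exact Finset.sum_congr rfl fun i _ => by ring

theorem gauss_plus : gauss (Cfsg.quadFormPlus d F) = (Fintype.card F : ℤ) ^ d := by
  classical
  unfold gauss
  rw [← Equiv.sum_comp (Equiv.sumArrowEquivProdArrow (Fin d) (Fin d) F).symm, Fintype.sum_prod_type,
    Finset.sum_eq_single (0 : Fin d → F)]
  · simp [Cfsg.quadFormPlus, chi_zero]
  · intro a _ ha
    obtain ⟨i, hi⟩ := Function.ne_iff.1 ha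
    obtain ⟨t, ht⟩ := exists_chi (x := a i) hi
    refine sum_chi_eq_zero _ (fun b c => ?_) ⟨Pi.single i t, ?_⟩
    · simp [Cfsg.quadFormPlus, mul_add, Finset.sum_add_distrib]
    · rw [← ht]
      congr 1
      simp [Cfsg.quadFormPlus, Pi.single_apply, mul_comm]
  · simp

theorem IsQ.gauss_cases (hQ : IsQ d Q) :
    gauss Q = (Fintype.card F : ℤ) ^ d ∨ gauss Q = -(Fintype.card F : ℤ) ^ d := by
  obtain ⟨w, hw⟩ := isQ_plus.exists_shift hQ
  rw [funext hw, isQ_plus.gauss_shift, gauss_plus]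
  rcases chi_cases (Cfsg.quadFormPlus d F w) with h | h <;> simp [h]

theorem IsQ.gauss_ne_zero (hQ : IsQ d Q) : gauss Q ≠ 0 := by
  have : (Fintype.card F : ℤ) ^ d ≠ 0 := pow_ne_zero _ (by simp)
  rcases hQ.gauss_cases with h | h <;> simp [h, this]

theorem mem_spGL {g : GL (Fin d ⊕ Fin d) F} :
    g ∈ Cfsg.spGL d F ↔ ∀ u v, stdB d F (g.val *ᵥ u) (g.val *ᵥ v) = stdB d F u v := by
  rw [spGL_eq]; exact Iff.rfl

theorem IsQ.comp (hQ : IsQ d Q) {g : GL (Fin d ⊕ Fin d) F} (hg : g ∈ Cfsg.spGL d F) :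
    IsQ d fun v => Q (g.val *ᵥ v) :=
  ⟨fun c v => by simp [Matrix.mulVec_smul, hQ.smul],
    fun u v => by simp [Matrix.mulVec_add, hQ.add, mem_spGL.1 hg]⟩

theorem gauss_comp (g : GL (Fin d ⊕ Fin d) F) :
    gauss (fun v => Q (g.val *ᵥ v)) = gauss Q := by
  unfold gauss
  exact Equiv.sum_comp
    { toFun := fun v => g.val *ᵥ v
      invFun := fun v => (g⁻¹).val *ᵥ v
      left_inv := fun v => by simp [Matrix.mulVec_mulVec]
      right_inv := fun v => by simp [Matrix.mulVec_mulVec] } fun v => chi (Q v)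

theorem IsQ.exists_transvection (hQ : IsQ d Q) {w : Fin d ⊕ Fin d → F} (hw : chi (Q w) = 1) :
    ∃ g ∈ Cfsg.spGL d F, ∀ v, Q (g.val *ᵥ v) = OrthSympTwo.shift Q w v := by
  obtain ⟨c, hc⟩ : ∃ c : F, c + c ^ 2 * Q w = 1 := by
    obtain ⟨a, ha⟩ := artin_schreier hw
    by_cases h0 : Q w = 0
    · exact ⟨1, by simp [h0]⟩
    · exact ⟨a / Q w, by field_simp; linear_combination ha⟩
  refine ⟨sympT (stdB d F) w c, by rw [spGL_eq]; exact sympT_mem (stdB_isAlt d) w c, fun v => ?_⟩
  rw [sympT_mulVec (stdB_isAlt d), hQ.add, hQ.smul, map_smul, smul_eq_mul, OrthSympTwo.shift,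
    stdB_symm v w]
  linear_combination (stdB d F w v) ^ 2 * hc

theorem IsQ.exists_conj (hQ : IsQ d Q) (hQ' : IsQ d Q') (h : gauss Q = gauss Q') :
    ∃ g ∈ Cfsg.spGL d F, ∀ v, Q (g.val *ᵥ v) = Q' v := by
  obtain ⟨w, hw⟩ := hQ.exists_shift hQ'
  have hw1 : chi (Q w) = 1 := by
    rw [funext hw, hQ.gauss_shift] at h
    exact mul_right_cancel₀ hQ.gauss_ne_zero (by rw [one_mul]; exact h.symm)
  exact (hQ.exists_transvection hw1).imp fun g hg => ⟨hg.1, fun v => by rw [hg.2, hw]⟩

theorem IsQ.shift_inj {w w' : Fin d ⊕ Fin d → F}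
    (h : ∀ v, OrthSympTwo.shift Q w v = OrthSympTwo.shift Q w' v) : w = w' := by
  have h0 : ∀ v, stdB d F w v = stdB d F w' v := fun v =>
    sq_inj (by simpa [OrthSympTwo.shift] using h v)
  refine sub_eq_zero.1 ((stdB_nondegenerate d).1 (w - w') fun v => ?_)
  rw [map_sub, LinearMap.sub_apply, h0, sub_self]

theorem finrank_V : finrank F (Fin d ⊕ Fin d → F) = 2 * d := by simp [two_mul]

theorem orthogonal_eq_self {W : Submodule F (Fin d ⊕ Fin d → F)} (hW : finrank F W = d)
    (h : ∀ u ∈ W, ∀ v ∈ W, stdB d F u v = 0) : (stdB d F).orthogonal W = W := by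
  have hle : W ≤ (stdB d F).orthogonal W := fun v hv => by
    rw [LinearMap.BilinForm.mem_orthogonal_iff]
    exact fun u hu => h u hu v hv
  refine (Submodule.eq_of_le_of_finrank_eq hle ?_).symm
  rw [LinearMap.BilinForm.finrank_orthogonal (stdB_nondegenerate d), finrank_V,
    hW]
  omega

theorem IsQ.isPlus_iff (hQ : IsQ d Q) :
    Cfsg.Geo.IsPlusTypeOn Q ⊤ ↔ gauss Q = (Fintype.card F : ℤ) ^ d := by
  classical
  constructor
  · rintro ⟨W, -, hWs, hWd⟩
    rw [finrank_top, finrank_V] at hWd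
    have hWd' : finrank F W = d := by omega
    have hiso : ∀ u ∈ W, ∀ v ∈ W, stdB d F u v = 0 := fun u hu v hv => by
      have := hQ.add u v
      rw [hWs _ (W.add_mem hu hv), hWs _ hu, hWs _ hv, zero_add, zero_add] at this
      exact this.symm
    have hperp := orthogonal_eq_self hWd' hiso
    have hcard : (Fintype.card W : ℤ) = (Fintype.card F : ℤ) ^ d := by
      rw [Module.card_eq_pow_finrank (K := F) (V := W), hWd']; push_cast; rfl
    have hne : (Fintype.card W : ℤ) ≠ 0 := by simp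
    have key : ∀ v, (∑ u : W, chi (stdB d F v u)) =
        if v ∈ W then (Fintype.card W : ℤ) else 0 := by
      intro v
      split_ifs with hv
      · simp [hiso v hv _ (Subtype.coe_prop _), chi_zero]
      · have hv' : v ∉ (stdB d F).orthogonal W := by rwa [hperp]
        rw [LinearMap.BilinForm.mem_orthogonal_iff] at hv'
        push Not at hv'
        obtain ⟨u, hu, huv⟩ := hv'
        obtain ⟨a, ha⟩ := exists_chi (x := stdB d F v u) (by
          rw [stdB_symm]; exact huv)
        exact sum_chi_eq_zero _ (fun x y => by simp) ⟨⟨a • u, W.smul_mem a hu⟩, by simpa using ha⟩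
    rw [← hcard]
    refine mul_left_cancel₀ hne ?_
    calc (Fintype.card W : ℤ) * gauss Q = ∑ u : W, ∑ v, chi (Q (v + u)) := by
          have e : ∀ u : W, ∑ v, chi (Q (v + u)) = ∑ v, chi (Q v) := fun u =>
            Equiv.sum_comp (Equiv.addRight (u : Fin d ⊕ Fin d → F)) fun v => chi (Q v)
          simp only [e, Finset.sum_const, Finset.card_univ, nsmul_eq_mul]
          rfl
      _ = ∑ v, chi (Q v) * ∑ u : W, chi (stdB d F v u) := by
          rw [Finset.sum_comm]
          refine Finset.sum_congr rfl fun v _ => ?_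
          rw [Finset.mul_sum]
          refine Finset.sum_congr rfl fun u _ => ?_
          rw [hQ.add, hWs _ u.2, add_zero, chi_add]
      _ = (Fintype.card W : ℤ) * Fintype.card W := by
          simp only [key, mul_ite, mul_zero, ← Finset.sum_filter]
          rw [Finset.sum_congr rfl fun v hv => by
            rw [hWs v (Finset.mem_filter.1 hv).2, chi_zero, one_mul], Finset.sum_const, nsmul_eq_mul,
            ← Fintype.card_subtype]
  · intro h
    obtain ⟨g, hg, hgQ⟩ := hQ.exists_conj isQ_plus (h.trans gauss_plus.symm)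
    let ι : (Fin d → F) →ₗ[F] (Fin d ⊕ Fin d → F) :=
      { toFun := fun a => g.val *ᵥ Sum.elim a 0
        map_add' := fun a b => by rw [← Matrix.mulVec_add]; congr 1; ext (i | i) <;> simp
        map_smul' := fun c a => by
          rw [RingHom.id_apply, ← Matrix.mulVec_smul]; congr 1; ext (i | i) <;> simp }
    refine ⟨LinearMap.range ι, le_top, ?_, ?_⟩
    · rintro _ ⟨a, rfl⟩
      show Q (g.val *ᵥ Sum.elim a 0) = 0
      rw [hgQ]
      simp [Cfsg.quadFormPlus]
    · rw [finrank_top, finrank_V, LinearMap.finrank_range_of_inj, Module.finrank_fin_fun]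
      intro a b hab
      have := congrArg (fun v => (g⁻¹).val *ᵥ v) hab
      simp only [ι, LinearMap.coe_mk, AddHom.coe_mk, Matrix.mulVec_mulVec, ← Units.val_mul,
        inv_mul_cancel, Units.val_one, Matrix.one_mulVec] at this
      exact funext fun i => congrFun this (.inl i)

theorem two_mul_card_pos (hQ : IsQ d Q) :
    2 * (Nat.card {w // chi (Q w) = 1} : ℤ) = (Fintype.card F : ℤ) ^ (2 * d) + gauss Q := by
  classical
  have h1 : gauss Q = ∑ v, (2 * (if chi (Q v) = 1 then (1 : ℤ) else 0) - 1) :=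
    Finset.sum_congr rfl fun v _ => by rcases chi_cases (Q v) with h | h <;> simp [h]
  rw [Finset.sum_sub_distrib, ← Finset.mul_sum, Finset.sum_boole, Finset.sum_const, nsmul_eq_mul,
    mul_one, Finset.card_univ, Fintype.card_fun, Fintype.card_sum, Fintype.card_fin] at h1
  rw [Nat.card_eq_fintype_card, Fintype.card_subtype]
  push_cast at h1
  rw [h1, two_mul d]
  ring

theorem IsQ.sim_iff (hQ : IsQ d Q) (hd : 0 < d) {g : GL (Fin d ⊕ Fin d) F} (hg : g ∈ Cfsg.spGL d F) :
    g ∈ Cfsg.Geo.quadSimilarityGroup Q ↔ ∀ v, Q (g.val *ᵥ v) = Q v := by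
  refine ⟨fun ⟨c, hc⟩ => ?_, fun h => ⟨1, fun v => by simp [h]⟩⟩
  have hcf : ∀ u v, ((c : F) - 1) * stdB d F u v = 0 := fun u v => by
    have h1 := hQ.add (g.val *ᵥ u) (g.val *ᵥ v)
    rw [← Matrix.mulVec_add, hc, hc, hc, mem_spGL.1 hg, hQ.add u v] at h1
    linear_combination h1
  haveI : NeZero d := ⟨hd.ne'⟩
  obtain ⟨v, hv⟩ : ∃ v, stdB d F (Pi.single (.inl 0) 1) v ≠ 0 := by
    by_contra h
    push Not at h
    have := congrFun ((stdB_nondegenerate d).1 _ h) (.inl 0)
    simp at this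
  have : (c : F) = 1 := sub_eq_zero.1 ((mul_eq_zero.1 (hcf _ _)).resolve_right hv)
  intro v
  rw [hc, this, one_mul]

theorem IsQ.relIndex_eq (hQ : IsQ d Q) (hd : 0 < d) :
    (Cfsg.Geo.quadSimilarityGroup Q).relIndex (Cfsg.spGL d F) = Nat.card {w // chi (Q w) = 1} := by
  have hex : ∀ g : Cfsg.spGL d F, ∃ w : {w // chi (Q w) = 1},
      ∀ v, Q ((g⁻¹ : Cfsg.spGL d F).1.val *ᵥ v) = OrthSympTwo.shift Q w.1 v := by
    intro g
    obtain ⟨w, hw⟩ := hQ.exists_shift (hQ.comp (g⁻¹).2)
    refine ⟨⟨w, ?_⟩, hw⟩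
    have := gauss_comp (Q := Q) (g⁻¹).1
    rw [funext hw, hQ.gauss_shift] at this
    exact mul_right_cancel₀ hQ.gauss_ne_zero (by rw [one_mul]; exact this)
  choose φ hφ using hex
  have hrel : ∀ a b : Cfsg.spGL d F, φ a = φ b ↔ a⁻¹ * b ∈
      (Cfsg.Geo.quadSimilarityGroup Q).subgroupOf (Cfsg.spGL d F) := by
    intro a b
    rw [Subgroup.mem_subgroupOf, hQ.sim_iff hd (a⁻¹ * b).2]
    constructor
    · intro h v
      show Q (((a⁻¹).1 * b.1 : GL _ F).val *ᵥ v) = Q v
      rw [Units.val_mul, ← Matrix.mulVec_mulVec, hφ, h, ← hφ, Matrix.mulVec_mulVec, ← Units.val_mul,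
        ← Subgroup.coe_mul, inv_mul_cancel, Subgroup.coe_one, Units.val_one, Matrix.one_mulVec]
    · intro h
      refine Subtype.ext (IsQ.shift_inj (Q := Q) fun v => ?_)
      rw [← hφ a, ← hφ b, ← h ((b⁻¹).1.val *ᵥ v)]
      simp [Matrix.mulVec_mulVec, mul_assoc]
  rw [Subgroup.relIndex, Subgroup.index]
  refine Nat.card_congr (Equiv.ofBijective (Quotient.lift φ fun a b h => (hrel a b).2 ?_) ⟨?_, ?_⟩)
  · exact QuotientGroup.leftRel_apply.1 h
  · rintro ⟨a⟩ ⟨b⟩ h
    exact Quotient.sound (QuotientGroup.leftRel_apply.2 ((hrel a b).1 h))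
  · intro w
    obtain ⟨g, hg, hgQ⟩ := hQ.exists_transvection w.2
    refine ⟨Quotient.mk _ (⟨g, hg⟩ : Cfsg.spGL d F)⁻¹, Subtype.ext (IsQ.shift_inj (Q := Q) fun v => ?_)⟩
    show OrthSympTwo.shift Q (φ _).1 v = _
    rw [← hφ, ← hgQ, inv_inv]

end Cfsg.Agent.Lib.OrthSympTwo
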